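import Cfsg.Agent.Lib.KnownSimple.L32Lab.Data

set_option autoImplicit false
set_option maxRecDepth 100000

namespace Cfsg.Agent.Lib.KnownSimple.L32Lab

open Cfsg.Agent.Lib.KnownSimple.Lab Cfsg.Agent.Lib.KnownSimple.L32Lab Dat

theorem hT0_c0 : allI (fun i => Nat.blt (D.T 0 i) 24) 0 24 = true := by decide +kernel
theorem hT0_u0 : ∀ i, i < 24 → (fun i => Nat.blt (D.T 0 i) 24) i = true :=
  allI_join allI_start hT0_c0 rfl
theorem hT0 : ∀ i, i < 24 → (fun i => Nat.blt (D.T 0 i) 24) i = true := hT0_u0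
theorem hT1_c0 : allI (fun i => Nat.blt (D.T 1 i) 24) 0 24 = true := by decide +kernel
theorem hT1_u0 : ∀ i, i < 24 → (fun i => Nat.blt (D.T 1 i) 24) i = true :=
  allI_join allI_start hT1_c0 rfl
theorem hT1 : ∀ i, i < 24 → (fun i => Nat.blt (D.T 1 i) 24) i = true := hT1_u0
theorem hT2_c0 : allI (fun i => Nat.blt (D.T 2 i) 24) 0 24 = true := by decide +kernel
theorem hT2_u0 : ∀ i, i < 24 → (fun i => Nat.blt (D.T 2 i) 24) i = true :=
  allI_join allI_start hT2_c0 rfl
theorem hT2 : ∀ i, i < 24 → (fun i => Nat.blt (D.T 2 i) 24) i = true := hT2_u0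
theorem hT3_c0 : allI (fun i => Nat.blt (D.T 3 i) 24) 0 24 = true := by decide +kernel
theorem hT3_u0 : ∀ i, i < 24 → (fun i => Nat.blt (D.T 3 i) 24) i = true :=
  allI_join allI_start hT3_c0 rfl
theorem hT3 : ∀ i, i < 24 → (fun i => Nat.blt (D.T 3 i) 24) i = true := hT3_u0
theorem hTree_c0 : allI (fun j => Nat.beq j 0 || (Nat.blt (D.par j) j && Nat.blt (D.gn j) 4 && Nat.beq (D.T (D.gn j) (D.par j)) j)) 0 24 = true := by decide +kernel
theorem hTree_u0 : ∀ i, i < 24 → (fun j => Nat.beq j 0 || (Nat.blt (D.par j) j && Nat.blt (D.gn j) 4 && Nat.beq (D.T (D.gn j) (D.par j)) j)) i = true :=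
  allI_join allI_start hTree_c0 rfl
theorem hTree : ∀ i, i < 24 → (fun j => Nat.beq j 0 || (Nat.blt (D.par j) j && Nat.blt (D.gn j) 4 && Nat.beq (D.T (D.gn j) (D.par j)) j)) i = true := hTree_u0
theorem hV0_c0 : allI (fun i => varOK D 0 i) 0 24 = true := by decide +kernel
theorem hV0_u0 : ∀ i, i < 24 → (fun i => varOK D 0 i) i = true :=
  allI_join allI_start hV0_c0 rfl
theorem hV0 : ∀ i, i < 24 → (fun i => varOK D 0 i) i = true := hV0_u0
theorem hV1_c0 : allI (fun i => varOK D 1 i) 0 24 = true := by decide +kernel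
theorem hV1_u0 : ∀ i, i < 24 → (fun i => varOK D 1 i) i = true :=
  allI_join allI_start hV1_c0 rfl
theorem hV1 : ∀ i, i < 24 → (fun i => varOK D 1 i) i = true := hV1_u0
theorem hV2_c0 : allI (fun i => varOK D 2 i) 0 24 = true := by decide +kernel
theorem hV2_u0 : ∀ i, i < 24 → (fun i => varOK D 2 i) i = true :=
  allI_join allI_start hV2_c0 rfl
theorem hV2 : ∀ i, i < 24 → (fun i => varOK D 2 i) i = true := hV2_u0
theorem hV3_c0 : allI (fun i => varOK D 3 i) 0 24 = true := by decide +kernel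
theorem hV3_u0 : ∀ i, i < 24 → (fun i => varOK D 3 i) i = true :=
  allI_join allI_start hV3_c0 rfl
theorem hV3 : ∀ i, i < 24 → (fun i => varOK D 3 i) i = true := hV3_u0

end Cfsg.Agent.Lib.KnownSimple.L32Lab
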